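import Cfsg.Agent.H874.SNX.B2F4
import Cfsg.Agent.H347.SNX.FFour

/-!
# `Lr3` for `F₄(3)` (S3831: T4a of helper347 with the two tests T4b; helper874)
-/

set_option autoImplicit false

namespace Cfsg.Agent.H874.SNX

open CoxeterSystem Cfsg.Agent.ChevalleyStructure.CoxeterGeom Cfsg.Agent.Tits.Roots Cfsg.Agent.Tits.Core
  Cfsg.Agent.Nodes.Reps Cfsg.Agent.Nodes.BNOf Cfsg.Agent.Nodes.StabComb Cfsg.Agent.Nodes.Bruhat
  Cfsg.Agent.Nodes.LeviDec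
open Cfsg.Agent.H880.Six (PS2 Lr3)
open Cfsg Cfsg.Lie Cfsg.Agent.ChevalleyStructure.CoxeterGeomTypes
open Cfsg.Agent.KFacts.RgdTI (LR)

theorem lr3_F4 {Y : Type} [Group Y] {T : Subgroup Y} [Finite Y] [IsSimpleGroup Y]
    {h : IsCartan CoxeterMatrix.F₄ (cartanOf chevF4 4)} {n : Fin 4 → Y}
    {X : (Fin 4 → ℤ) → Subgroup Y} (R : RGD CoxeterMatrix.F₄.toCoxeterSystem h 3 T n X)
    (hG : GG CoxeterMatrix.F₄.toCoxeterSystem h T X = ⊤) (hc : ∀ i, Nat.card (X (sr i)) = 3) (hLR : LR R (sr 3))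
    (hst : ∀ x y, IsRoot CoxeterMatrix.F₄.toCoxeterSystem h x → IsRoot CoxeterMatrix.F₄.toCoxeterSystem h y → x ≠ -y →
      ¬ IsRoot CoxeterMatrix.F₄.toCoxeterSystem h (x + y) → ∀ a ∈ X x, ∀ b ∈ X y, a * b = b * a) : Lr3 X 3 := by
  refine H347.SNX.lr3_F4 R hG hc hLR (fun v hv h3 hP => tB2_F4 R hc hst hv h3 hP) fun v hv h3 hP => ?_
  have e : (sr 2 + (2 : ℤ) • sr 1 : Fin 4 → ℤ) = sr 2 + 2 • sr 1 := by decide +kernel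
  have h1 : v ∈ RGD.Sup X {x | x ∈ RGD.Pos CoxeterMatrix.F₄.toCoxeterSystem h ∧
      (x 0 = 0 → x 3 = 0 → x = sr 2 ∨ x = sr 2 + 2 • sr 1)} :=
    (show RGD.Sup X (H347.SNX.SB h) ≤ _ from RGD.Sup_le fun x hx =>
      RGD.le_Sup (S := {x | x ∈ RGD.Pos CoxeterMatrix.F₄.toCoxeterSystem h ∧
        (x 0 = 0 → x 3 = 0 → x = sr 2 ∨ x = sr 2 + 2 • sr 1)}) ⟨hx.1, fun h0 h3 => e ▸ hx.2 ⟨h0, h3⟩⟩) hv
  rcases tB2_F4' R hc hst h1 h3 hP with h2 | h2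
  · exact Or.inl h2
  · right
    refine (show RGD.Sup X {x | x ∈ RGD.Pos CoxeterMatrix.F₄.toCoxeterSystem h ∧ (x 0 = 0 → x 3 = 0 → x = sr 2)} ≤ _ from
      RGD.Sup_le fun x hx => RGD.le_Sup (S := H347.SNX.SB h \ {sr 2 + (2 : ℤ) • sr 1}) ⟨⟨hx.1, fun h0 =>
        Or.inl (hx.2 h0.1 h0.2)⟩, ?_⟩) h2
    intro hx1
    have hx1' : x = sr 2 + (2 : ℤ) • sr 1 := hx1
    have h4 := hx.2 (by rw [hx1']; decide +kernel) (by rw [hx1']; decide +kernel)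
    rw [h4] at hx1'
    exact absurd hx1' (by decide +kernel)

end Cfsg.Agent.H874.SNX
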